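import Cfsg.Agent.SchurG.Co1.TopC0
import Cfsg.Agent.SchurG.Co1.TopC1
import Cfsg.Agent.SchurG.Co1.TopC2
import Cfsg.Agent.SchurG.Co1.TopC3
import Cfsg.Agent.SchurG.Co1.TopC4
import Cfsg.Agent.SchurG.Co1.TopC5
import Cfsg.Agent.SchurG.Co1.TopC6
import Cfsg.Agent.SchurG.Co1.TopC7
import Cfsg.Agent.SchurG.Co1.TopC8
import Cfsg.Agent.SchurG.Co1.TopC9
import Cfsg.Agent.SchurG.Co1.TopC10
import Cfsg.Agent.SchurG.Co1.TopC11
import Cfsg.Agent.SchurG.Co1.TopC12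

set_option autoImplicit false
set_option maxRecDepth 100000

namespace Cfsg.Agent.SchurG.Co1.Top
open Cfsg.Agent.Comp

theorem index.{u} : IndexLe.{u} 16 Co1.R W 98280 :=
  indexLe_of_cert P HT (by decide +kernel)
    (show P.RowsOK 16 98304 from (Par.RowsOK.join (Par.RowsOK.join (Par.RowsOK.join (Par.RowsOK.join (Par.RowsOK.join r0 (Par.RowsOK.join r1 r2)) (Par.RowsOK.join r3 (Par.RowsOK.join r4 r5))) (Par.RowsOK.join (Par.RowsOK.join r6 (Par.RowsOK.join r7 r8)) (Par.RowsOK.join (Par.RowsOK.join r9 r10) (Par.RowsOK.join r11 r12)))) (Par.RowsOK.join (Par.RowsOK.join (Par.RowsOK.join r13 (Par.RowsOK.join r14 r15)) (Par.RowsOK.join r16 (Par.RowsOK.join r17 r18))) (Par.RowsOK.join (Par.RowsOK.join r19 (Par.RowsOK.join r20 r21)) (Par.RowsOK.join (Par.RowsOK.join r22 r23) (Par.RowsOK.join r24 r25))))) (Par.RowsOK.join (Par.RowsOK.join (Par.RowsOK.join (Par.RowsOK.join r26 (Par.RowsOK.join r27 r28))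 (Par.RowsOK.join r29 (Par.RowsOK.join r30 r31))) (Par.RowsOK.join (Par.RowsOK.join r32 (Par.RowsOK.join r33 r34)) (Par.RowsOK.join (Par.RowsOK.join r35 r36) (Par.RowsOK.join r37 r38)))) (Par.RowsOK.join (Par.RowsOK.join (Par.RowsOK.join r39 (Par.RowsOK.join r40 r41)) (Par.RowsOK.join r42 (Par.RowsOK.join r43 r44))) (Par.RowsOK.join (Par.RowsOK.join r45 (Par.RowsOK.join r46 r47)) (Par.RowsOK.join (Par.RowsOK.join r48 r49) (Par.RowsOK.join r50 r51)))))))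

end Cfsg.Agent.SchurG.Co1.Top
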